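import Mathlib
import Cfsg.Agent.Lib.Helper95.BRA.Defs
import Cfsg.Agent.Lib.Helper78.BlockOrth
import Cfsg.Agent.Lib.Helper77.Degree
import Cfsg.Agent.Lib.Helper79.ClassMult

/-!
# BRA package [C2] (S4484)

A nonprincipal irreducible character of degree prime to `q` in the principal `p`-block, from the
block orthogonality relation at `(1, z)` for an element `z` of order `p`.
-/

set_option autoImplicit false

namespace Cfsg.Agent.Lib.Helper71.BRA

open Cfsg

universe u

/-- a `p`-modular maximal ideal of the ring of algebraic integers exists -/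
theorem exists_isPModular_c2 (p : ℕ) (hp : p.Prime) :
    ∃ M : Ideal Cfsg.AlgInt, Cfsg.IsPModular p M := by
  have hne : Ideal.span {((p : ℕ) : Cfsg.AlgInt)} ≠ ⊤ := by
    rw [Ne, Ideal.span_singleton_eq_top]
    intro hu
    obtain ⟨v, hv⟩ := hu.exists_right_inv
    have h1 : ((1 : ℕ) : ℂ) = ((p : ℕ) : ℂ) * (v : ℂ) := by
      have := congrArg (integralClosure ℤ ℂ).val hv
      rw [map_mul, map_natCast, map_one] at this
      rw [Nat.cast_one]
      exact this.symm
    have h2 := Cfsg.Agent.Lib.Helper79.nat_dvd_of_eq_mul_isIntegral 1 p hp.ne_zero (v : ℂ) v.2 h1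
    have := Nat.le_of_dvd Nat.one_pos h2
    have := hp.one_lt
    omega
  obtain ⟨M, hM, hle⟩ := Ideal.exists_le_maximal _ hne
  exact ⟨M, hp, hM, hle (Ideal.subset_span rfl)⟩

/-- the degree of an irreducible character, as a complex number -/
theorem irr_one_eq_charDegree_c2 {G : Type u} [Group G] (χ : Cfsg.IrrCharacter G) :
    (χ : G → ℂ) 1 = (Cfsg.charDegree (χ : G → ℂ) : ℂ) := by
  obtain ⟨n, _, h⟩ := Cfsg.Agent.Lib.Helper81.irr_one_eq χ
  have : Cfsg.charDegree (χ : G → ℂ) = n := by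
    unfold Cfsg.charDegree
    rw [h]
    simp
  rw [this, h]

theorem pkgC2 : Cfsg.Agent.Lib.Helper95.BRA.PkgC2.{u} := by
  intro G _ _ p q hp hq z hz
  classical
  haveI : Fact p.Prime := ⟨hp⟩
  letI : Fintype G := Fintype.ofFinite G
  obtain ⟨M, hM⟩ := exists_isPModular_c2 p hp
  refine ⟨M, hM, ?_⟩
  have h1irr : Cfsg.IsIrrCharacter G (fun _ => (1 : ℂ)) :=
    Cfsg.Agent.Lib.Helper81.isIrrCharacter_one
  set χ0 : Cfsg.IrrCharacter G := ⟨fun _ => 1, h1irr⟩ with hχ0
  set B : Set (Cfsg.IrrCharacter G) := Cfsg.blockOf M (fun _ : G => (1 : ℂ)) with hB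
  have hBblock : Cfsg.IsPBlock M B := ⟨χ0, rfl⟩
  have hreg : ¬ p ∣ orderOf (1 : G) := by
    rw [orderOf_one]
    exact hp.one_lt.ne' ∘ Nat.dvd_one.mp
  have hsing : p ∣ orderOf z := by rw [hz]
  have horth := Cfsg.Agent.Lib.Helper78.block_orth_regular_singular hM B hBblock hreg hsing
  by_contra hcon
  push Not at hcon
  haveI : Finite (Cfsg.IrrCharacter G) := Cfsg.Agent.Lib.Helper81.irr_finite G
  have hχ0B : χ0 ∈ B := by
    show Cfsg.SameBlock M (fun _ : G => (1 : ℂ)) (χ0 : G → ℂ)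
    intro g
    refine ⟨0, 1, M.zero_mem, ?_, ?_⟩
    · exact (Ideal.ne_top_iff_one M).mp hM.2.1.ne_top
    · simp [hχ0]
  -- every other member of the block has degree divisible by `q`
  have hdvd : ∀ χ ∈ B, χ ≠ χ0 → q ∣ Cfsg.charDegree (χ : G → ℂ) := by
    intro χ hχ hne
    by_contra hq'
    refine hcon χ.1 χ.2 ?_ hq' hχ
    intro h
    exact hne (Subtype.ext h)
  rw [finsum_mem_eq_finite_toFinset_sum _ (Set.toFinite B)] at horth
  have hmem : χ0 ∈ (Set.toFinite B).toFinset := by simpa using hχ0B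
  rw [← Finset.add_sum_erase _ _ hmem] at horth
  have h0 : (χ0 : G → ℂ) 1 * (χ0 : G → ℂ) z⁻¹ = 1 := by simp [hχ0]
  rw [h0] at horth
  -- the remaining sum is `q` times an algebraic integer
  have hsum : ∑ χ ∈ ((Set.toFinite B).toFinset).erase χ0, (χ : G → ℂ) 1 * (χ : G → ℂ) z⁻¹
      = (q : ℂ) * ∑ χ ∈ ((Set.toFinite B).toFinset).erase χ0,
          ((Cfsg.charDegree (χ : G → ℂ) / q : ℕ) : ℂ) * (χ : G → ℂ) z⁻¹ := by
    rw [Finset.mul_sum]
    refine Finset.sum_congr rfl fun χ hχ => ?_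
    have hχB : χ ∈ B := by
      have := Finset.mem_of_mem_erase hχ
      simpa using this
    have hne : χ ≠ χ0 := Finset.ne_of_mem_erase hχ
    have hd := hdvd χ hχB hne
    rw [irr_one_eq_charDegree_c2 χ, ← mul_assoc, ← Nat.cast_mul, Nat.mul_div_cancel' hd]
  rw [hsum] at horth
  set A : ℂ := ∑ χ ∈ ((Set.toFinite B).toFinset).erase χ0,
          ((Cfsg.charDegree (χ : G → ℂ) / q : ℕ) : ℂ) * (χ : G → ℂ) z⁻¹ with hA
  have hAint : IsIntegral ℤ A := by
    have hnat : ∀ n : ℕ, IsIntegral ℤ (n : ℂ) := fun n => by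
      have h := isIntegral_algebraMap (R := ℤ) (A := ℂ) (x := (n : ℤ))
      simpa using h
    refine IsIntegral.sum _ fun χ _ => ?_
    exact (hnat _).mul (Cfsg.Agent.Lib.Helper77.isIntegral_irr_apply χ z⁻¹)
  have h1 : ((1 : ℕ) : ℂ) = (q : ℂ) * (-A) := by
    rw [Nat.cast_one]
    linear_combination horth
  have h2 := Cfsg.Agent.Lib.Helper79.nat_dvd_of_eq_mul_isIntegral 1 q hq.ne_zero (-A) hAint.neg h1
  have := Nat.le_of_dvd Nat.one_pos h2
  have := hq.one_lt
  omega

end Cfsg.Agent.Lib.Helper71.BRA
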